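import Mathlib
import Cfsg.Agent.Lib.Helper36.Sti.Defs
import Cfsg.Agent.Lib.Helper26.VChar
import Cfsg.Agent.Lib.Helper12.Subdeg

set_option autoImplicit false

/-!
Package IRRN of project STI: an alternating sum of permutation characters of norm one and
positive degree is an irreducible character.
-/

namespace Cfsg.Agent.Lib.Helper75.Sti

open Cfsg.Agent.Lib.Helper26

universe u

theorem pkgIrrN : Cfsg.Agent.Lib.Helper36.Sti.PkgIrrN.{u} := by
  intro G _ _ R P c m hc hsum hdeg hm
  classical
  haveI : Fintype (Cfsg.IrrCharacter G) := Fintype.ofFinite _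
  set θ : G → ℂ :=
    fun g => ∑ J ∈ R.powerset, (-1 : ℂ) ^ J.card * Cfsg.fixedPointCharacter (P J) g with hθ
  -- θ is a generalized character
  have hfun : θ = ∑ J ∈ R.powerset,
      (((-1 : ℤ) ^ J.card : ℤ) • Cfsg.fixedPointCharacter (P J)) := by
    funext g
    rw [hθ, Finset.sum_apply]
    refine Finset.sum_congr rfl (fun J _ => ?_)
    rw [Pi.smul_apply, zsmul_eq_mul]
    push_cast
    rfl
  have hgen : Cfsg.IsGeneralizedCharacter G θ := by
    rw [hfun]
    apply isGen_sum
    intro J _
    haveI : Fintype (G ⧸ P J) := Fintype.ofFinite _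
    exact isGen_zsmul (isGen_of_isCharacter
      (Cfsg.Agent.Lib.Helper12.Subdeg.isCharacter_permChar (G := G) (Ω := G ⧸ P J))) _
  -- θ is real valued
  have hconj : ∀ g : G, (starRingEnd ℂ) (θ g) = θ g := by
    intro g
    rw [hθ]
    simp only
    rw [map_sum]
    refine Finset.sum_congr rfl (fun J _ => ?_)
    unfold Cfsg.fixedPointCharacter
    rw [map_mul, map_pow, map_neg, map_one, map_natCast]
  -- norm one
  have hnorm : Cfsg.classInner θ θ = 1 := by
    unfold Cfsg.classInner
    simp only [hconj]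
    rw [← hsum]
    have h1 : ∀ x : G, θ x * θ x = ∑ J ∈ R.powerset, ∑ K ∈ R.powerset,
        (-1 : ℂ) ^ J.card * (-1 : ℂ) ^ K.card *
          (Cfsg.fixedPointCharacter (P J) x * Cfsg.fixedPointCharacter (P K) x) := by
      intro x
      rw [hθ]
      simp only
      rw [Finset.sum_mul_sum]
      refine Finset.sum_congr rfl (fun J _ => ?_)
      refine Finset.sum_congr rfl (fun K _ => ?_)
      ring
    simp only [h1]
    rw [Finset.sum_comm, Finset.mul_sum]
    refine Finset.sum_congr rfl (fun J hJ => ?_)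
    rw [Finset.sum_comm, Finset.mul_sum]
    refine Finset.sum_congr rfl (fun K hK => ?_)
    rw [← Finset.mul_sum, ← hc J hJ K hK]
    ring
  rcases irr_or_neg_of_norm_one hgen hnorm with h | h
  · exact h
  · exfalso
    obtain ⟨n, hn, hn1⟩ := irr_degree h
    rw [Pi.neg_apply] at hn1
    have h1 : θ 1 = (m : ℂ) := hdeg
    rw [h1] at hn1
    have h2 : ((m + n : ℕ) : ℂ) = 0 := by
      push_cast
      linear_combination -hn1
    have h3 : m + n = 0 := by exact_mod_cast h2
    omega

end Cfsg.Agent.Lib.Helper75.Sti
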