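import Mathlib
import Cfsg.Agent.Lib.Helper36.Sti.Defs
import Cfsg.Agent.Lib.Helper58.Steinberg

set_option autoImplicit false

/-!
Package VAN of project STI: an irreducible character of degree the order of a Sylow
`p`-subgroup vanishes at the `p`-singular elements.
-/

namespace Cfsg.Agent.Lib.Helper75.Sti

universe u

theorem pkgVan : Cfsg.Agent.Lib.Helper36.Sti.PkgVan.{u} := by
  intro G _ _ p _ χ P hχ hdeg g hg
  classical
  haveI : Fintype G := Fintype.ofFinite G
  refine Cfsg.Agent.Lib.Helper58.Steinberg.irr_vanish_of_defect_zero (p := p) hχ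
    (Nat.card ↥(P : Subgroup G)) 1 (P : Subgroup G).index hdeg ?_ ?_ hg
  · rw [mul_one, Subgroup.card_mul_index]
  · exact P.not_dvd_index

end Cfsg.Agent.Lib.Helper75.Sti
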